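import Mathlib
import Cfsg.Prelude.Def_GeometricClasses

/-! Extraspecial subgroups of order 27 of GL₃ and their normalizers. -/

set_option autoImplicit false

namespace Cfsg.Agent.Lib.Three

open Matrix
open scoped Matrix MatrixGroups

variable {F : Type*} [Field F]

local notation "M3" => Matrix (Fin 3) (Fin 3) F

/-- the cyclic shift -/
def shift : M3 := Matrix.of fun i j => if i = j + 1 then 1 else 0

/-- `diag(1, μ, μ²)` -/
def pows (μ : F) : M3 := Matrix.diagonal fun i => μ ^ (i : ℕ)

theorem shift_diag (d : Fin 3 → F) :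
    shift * Matrix.diagonal d = Matrix.diagonal (fun i => d (i + 2)) * (shift : M3) := by
  ext i j; fin_cases i <;> fin_cases j <;> simp [shift]

/-- a matrix commuting with the two generators is scalar -/
theorem scalar_of_comm {μ : F} (hμ : IsPrimitiveRoot μ 3) (g : M3) (hA : g * pows μ = pows μ * g)
    (hB : g * shift = shift * g) : g = g 0 0 • (1 : M3) := by
  have hoff : ∀ i j : Fin 3, i ≠ j → g i j = 0 := by
    intro i j hij
    have h := congrFun (congrFun hA i) j
    rw [pows, Matrix.mul_diagonal, Matrix.diagonal_mul, mul_comm (g i j)] at h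
    by_contra hne
    apply hij
    exact Fin.ext (hμ.pow_inj i.2 j.2 (mul_right_cancel₀ hne h).symm)
  have h1 := congrFun (congrFun hB 1) 0
  have h2 := congrFun (congrFun hB 2) 1
  simp [shift, Matrix.mul_apply, Fin.sum_univ_three] at h1 h2
  ext i j
  by_cases h : i = j
  · subst h; fin_cases i <;> simp [h1, h2]
  · simp [hoff i j h, h]

/-- independent eigenvectors make a diagonalizing matrix -/
theorem exists_diag_basis {n : ℕ} (M : Matrix (Fin n) (Fin n) F) (v : Fin n → Fin n → F) (d : Fin n → F)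
    (hv : LinearIndependent F v) (he : ∀ j, M *ᵥ v j = d j • v j) :
    ∃ P : GL (Fin n) F, M * (P : Matrix (Fin n) (Fin n) F) =
      (P : Matrix (Fin n) (Fin n) F) * Matrix.diagonal d ∧
      ∀ j i, (P : Matrix (Fin n) (Fin n) F) i j = v j i := by
  have hu : IsUnit (Matrix.of v)ᵀ := by
    rw [← Matrix.linearIndependent_cols_iff_isUnit]
    exact hv
  refine ⟨hu.unit, ?_, fun j i => rfl⟩
  ext i j
  rw [Matrix.mul_diagonal]
  have := congrFun (he j) i
  simp only [Matrix.mulVec, dotProduct, Pi.smul_apply, smul_eq_mul] at this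
  rw [Matrix.mul_apply]
  simpa [mul_comm (d j)] using this

/-- a matrix with `M^n = 1` is diagonalizable when the field has the roots of unity -/
theorem exists_diagonal {m n : ℕ} (hn : (n : F) ≠ 0) {ω : F} (hω : IsPrimitiveRoot ω n)
    (M : Matrix (Fin m) (Fin m) F) (hM : M ^ n = 1) :
    ∃ (P : GL (Fin m) F) (d : Fin m → F), (∀ i, d i ^ n = 1) ∧
      M * (P : Matrix (Fin m) (Fin m) F) = (P : Matrix (Fin m) (Fin m) F) * Matrix.diagonal d := by
  classical
  have hn0 : n ≠ 0 := fun h => hn (by rw [h, Nat.cast_zero])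
  let E : Set (Fin m → F) := {v | ∃ l : F, l ^ n = 1 ∧ M *ᵥ v = l • v}
  have hspan : Submodule.span F E = ⊤ := by
    rw [eq_top_iff]
    intro v _
    let w : ℕ → (Fin m → F) := fun i => ∑ k ∈ Finset.range n, (ω ^ (i * k)) • ((M ^ k) *ᵥ v)
    have hwE : ∀ i, w i ∈ Submodule.span F E := by
      intro i
      apply Submodule.subset_span
      refine ⟨(ω ^ i)⁻¹, by rw [inv_pow, ← pow_mul, mul_comm, pow_mul, hω.pow_eq_one, one_pow, inv_one], ?_⟩
      have hne : ω ^ i ≠ 0 := pow_ne_zero _ (hω.ne_zero hn0)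
      rw [eq_inv_smul_iff₀ hne]
      let f : ℕ → (Fin m → F) := fun k => (ω ^ (i * k)) • ((M ^ k) *ᵥ v)
      have h1 : ω ^ i • (M *ᵥ w i) = ∑ k ∈ Finset.range n, f (k + 1) := by
        simp only [w, Matrix.mulVec_sum, Finset.smul_sum]
        refine Finset.sum_congr rfl fun k _ => ?_
        simp only [f]
        rw [Matrix.mulVec_smul, smul_smul, ← pow_add, Matrix.mulVec_mulVec, ← pow_succ',
          show i + i * k = i * (k + 1) by ring]
      rw [h1]
      have h0 : f 0 = f n := by
        simp only [f]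
        rw [Nat.mul_zero, mul_comm i n, pow_mul, hω.pow_eq_one, one_pow, hM, pow_zero, pow_zero]
      have h4 := Finset.sum_range_succ' f n
      rw [Finset.sum_range_succ, h0] at h4
      exact (add_right_cancel h4).symm
    have hsum : ∑ i ∈ Finset.range n, w i = (n : F) • v := by
      simp only [w]
      rw [Finset.sum_comm, Finset.sum_eq_single 0]
      · simp [Nat.cast_smul_eq_nsmul]
      · intro k hk hk0
        rw [← Finset.sum_smul]
        have : ∑ i ∈ Finset.range n, ω ^ (i * k) = 0 := by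
          simp_rw [mul_comm _ k, pow_mul]
          have hne : ω ^ k ≠ 1 := hω.pow_ne_one_of_pos_of_lt hk0 (Finset.mem_range.1 hk)
          rw [geom_sum_eq hne, ← pow_mul, mul_comm, pow_mul, hω.pow_eq_one, one_pow, sub_self, zero_div]
        rw [this, zero_smul]
      · intro h; simp [Nat.pos_of_ne_zero hn0] at h
    have : (n : F) • v ∈ Submodule.span F E := hsum ▸ Submodule.sum_mem _ (fun i _ => hwE i)
    simpa [hn] using Submodule.smul_mem _ (n : F)⁻¹ this
  obtain ⟨b, hbE, hbs, hbl⟩ := exists_linearIndependent F E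
  rw [hspan] at hbs
  let B : Module.Basis b F (Fin m → F) := Module.Basis.mk hbl (by rw [Subtype.range_coe]; exact hbs.ge)
  haveI : Fintype b := FiniteDimensional.fintypeBasisIndex B
  have hcard : Fintype.card b = m := by rw [← Module.finrank_eq_card_basis B, Module.finrank_fin_fun]
  let e : Fin m ≃ b := (Fintype.equivFinOfCardEq hcard).symm
  have hl : LinearIndependent F (fun j => ((e j : b) : Fin m → F)) := hbl.comp _ e.injective
  choose l hl1 hl2 using fun j => hbE (e j).2
  obtain ⟨P, hP, -⟩ := exists_diag_basis M _ l hl hl2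
  exact ⟨P, l, hl1, hP⟩

/-- reordering a diagonalization -/
theorem diag_perm {m : ℕ} {M : Matrix (Fin m) (Fin m) F} {d : Fin m → F} (P : GL (Fin m) F)
    (hP : M * (P : Matrix (Fin m) (Fin m) F) = (P : Matrix (Fin m) (Fin m) F) * Matrix.diagonal d)
    (σ : Equiv.Perm (Fin m)) :
    ∃ Q : GL (Fin m) F, M * (Q : Matrix (Fin m) (Fin m) F) =
      (Q : Matrix (Fin m) (Fin m) F) * Matrix.diagonal (d ∘ σ) := by
  have hu : IsUnit ((P : Matrix (Fin m) (Fin m) F).submatrix id σ) := by
    rw [Matrix.isUnit_iff_isUnit_det, Matrix.det_permute']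
    exact (((Equiv.Perm.sign σ).isUnit).map (Int.castRingHom F)).mul
      ((Matrix.isUnit_iff_isUnit_det _).1 P.isUnit)
  refine ⟨hu.unit, ?_⟩
  ext i j
  have := congrFun (congrFun hP i) (σ j)
  rw [Matrix.mul_diagonal] at this ⊢
  simpa [Matrix.mul_apply] using this

/-- conjugation by a determinant-one matrix onto the diagonal form -/
theorem exists_sl_conj_diag {m : ℕ} [NeZero m] (x D : GL (Fin m) F) (d : Fin m → F)
    (hD : (D : Matrix (Fin m) (Fin m) F) = Matrix.diagonal d) (P : GL (Fin m) F)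
    (hP : (x : Matrix (Fin m) (Fin m) F) * P = P * Matrix.diagonal d) :
    ∃ g ∈ Cfsg.Geo.specialLinear (Fin m) F, g⁻¹ * x * g = D := by
  set δ := ((P : Matrix (Fin m) (Fin m) F).det) with hδ
  have hδ0 : δ ≠ 0 := ((Matrix.isUnit_iff_isUnit_det _).1 P.isUnit).ne_zero
  let u : Fin m → F := Function.update 1 0 δ⁻¹
  have hu : (Matrix.diagonal u).det = δ⁻¹ := by
    rw [Matrix.det_diagonal, Finset.prod_update_of_mem (Finset.mem_univ _)]
    simp
  have hU : IsUnit (Matrix.diagonal u) := by
    rw [Matrix.isUnit_iff_isUnit_det, hu]; exact isUnit_iff_ne_zero.2 (inv_ne_zero hδ0)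
  refine ⟨P * hU.unit, ?_, ?_⟩
  · rw [Cfsg.Geo.specialLinear, MonoidHom.mem_ker]
    apply Units.ext
    show Matrix.det ((P : Matrix (Fin m) (Fin m) F) * Matrix.diagonal u) = 1
    rw [Matrix.det_mul, hu, ← hδ, mul_inv_cancel₀ hδ0]
  · rw [mul_assoc, inv_mul_eq_iff_eq_mul]
    apply Units.ext
    simp only [Units.val_mul, IsUnit.unit_spec, hD]
    rw [← mul_assoc, hP, mul_assoc, mul_assoc, Matrix.diagonal_mul_diagonal, Matrix.diagonal_mul_diagonal]
    simp [mul_comm]

/-- the data of a standard extraspecial group -/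
structure Std (R : Subgroup (GL (Fin 3) F)) (μ : F) where
  /-- the centre generator -/
  Z : GL (Fin 3) F
  /-- the diagonal generator -/
  A : GL (Fin 3) F
  /-- the shift generator -/
  B : GL (Fin 3) F
  hZ : (Z : M3) = μ • (1 : M3)
  hA : (A : M3) = pows μ
  hB : (B : M3) = shift
  mZ : Z ∈ R
  mA : A ∈ R
  mB : B ∈ R
  gen : R = Subgroup.closure {A, B}

/-- normalizing both generators -/
theorem Std.mem_normalizer {R : Subgroup (GL (Fin 3) F)} {μ : F} [Finite F] (h : Std R μ)
    (g : GL (Fin 3) F) (hA : g * h.A * g⁻¹ ∈ R) (hB : g * h.B * g⁻¹ ∈ R) :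
    g ∈ Subgroup.normalizer (R : Set (GL (Fin 3) F)) := by
  haveI : Finite (GL (Fin 3) F) := inferInstance
  haveI : Finite (R : Set (GL (Fin 3) F)) := Subtype.finite
  refine Subgroup.mem_normalizer_fintype fun u hu => ?_
  have key : R ≤ R.comap (MulAut.conj g).toMonoidHom := by
    conv_lhs => rw [h.gen]
    rw [Subgroup.closure_le]
    rintro v (rfl | rfl)
    · exact hA
    · exact hB
  exact key hu

/-- coordinates for an extraspecial subgroup of order 27 -/
theorem exists_std {μ : F} (hμ : IsPrimitiveRoot μ 3) (h3 : (3 : F) ≠ 0) (R : Subgroup (GL (Fin 3) F))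
    (hR : Nat.card R = 27) (hRe : Monoid.exponent R = 3) (hna : ¬ IsMulCommutative R) :
    ∃ (ν : F) (P : GL (Fin 3) F), IsPrimitiveRoot ν 3 ∧
      Nonempty (Std (R.map (MulAut.conj P⁻¹).toMonoidHom) ν) := by
  classical
  haveI : Finite R := Nat.finite_of_card_ne_zero (by omega)
  haveI : Fact (Nat.Prime 3) := ⟨Nat.prime_three⟩
  have hpg : IsPGroup 3 R := IsPGroup.of_card (n := 3) (by rw [hR]; norm_num)
  obtain ⟨a, b, hab⟩ : ∃ a b : R, a * b ≠ b * a := by
    by_contra hc
    push Not at hc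
    exact hna ⟨⟨hc⟩⟩
  have hcube : ∀ x : R, ((x : GL (Fin 3) F) : M3) ^ 3 = 1 := fun x => by
    have := Monoid.pow_exponent_eq_one x
    rw [hRe] at this
    rw [← Units.val_pow_eq_pow_val, ← Subgroup.coe_pow, this]; rfl
  -- the commutator is central
  have hcl : Subgroup.closure {a, b} = ⊤ := by
    rw [← Subgroup.card_eq_iff_eq_top, hR]
    obtain ⟨k, hk, hkc⟩ := (Nat.dvd_prime_pow Nat.prime_three (m := 3)).1
      (show Nat.card (Subgroup.closure {a, b}) ∣ 3 ^ 3 by
        rw [show 3 ^ 3 = Nat.card R by rw [hR]; norm_num]; exact Subgroup.card_subgroup_dvd_card _)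
    have ha : a ∈ Subgroup.closure ({a, b} : Set R) := Subgroup.subset_closure (by simp)
    have hb : b ∈ Subgroup.closure ({a, b} : Set R) := Subgroup.subset_closure (by simp)
    interval_cases k
    · exfalso
      have h1 := Subgroup.card_eq_one.1 hkc
      rw [h1, Subgroup.mem_bot] at ha
      exact hab (by simp [ha])
    · exfalso
      haveI := isCyclic_of_prime_card (p := 3) (by simpa using hkc : Nat.card (Subgroup.closure {a, b}) = 3)
      letI := IsCyclic.commGroup (α := Subgroup.closure ({a, b} : Set R))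
      exact hab (congrArg Subtype.val (mul_comm (G := Subgroup.closure ({a, b} : Set R)) ⟨a, ha⟩ ⟨b, hb⟩))
    · exfalso
      exact hab (congrArg Subtype.val (IsPGroup.commutative_of_card_eq_prime_sq hkc ⟨a, ha⟩ ⟨b, hb⟩))
    · simpa using hkc
  set c : R := a * b * a⁻¹ * b⁻¹ with hc
  have hZ : c ∈ Subgroup.center R := by
    haveI : Nontrivial R := ⟨a * b, b * a, hab⟩
    haveI := hpg.center_nontrivial
    have hdvd : Nat.card (Subgroup.center R) ∣ 3 ^ 3 := by
      rw [show 3 ^ 3 = Nat.card R by rw [hR]; norm_num]; exact Subgroup.card_subgroup_dvd_card _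
    obtain ⟨k, hk, hkc⟩ := (Nat.dvd_prime_pow Nat.prime_three).1 hdvd
    have hne : Nat.card (Subgroup.center R) ≠ 1 := Finite.one_lt_card.ne'
    have hq : Nat.card (R ⧸ Subgroup.center R) ∣ 9 := by
      have := Subgroup.card_eq_card_quotient_mul_card_subgroup (Subgroup.center R)
      rw [hR, hkc] at this
      interval_cases k
      · exact absurd hkc hne
      · exact ⟨1, by omega⟩
      · exact ⟨3, by omega⟩
      · exact ⟨9, by omega⟩
    have hcomm : ∀ x y : R ⧸ Subgroup.center R, x * y = y * x := by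
      obtain ⟨j, hj, hjc⟩ := (Nat.dvd_prime_pow Nat.prime_three (m := 2)).1 (by simpa using hq)
      interval_cases j
      · intro x y
        haveI : Subsingleton (R ⧸ Subgroup.center R) := (Nat.card_eq_one_iff_unique.1 hjc).1
        exact Subsingleton.elim _ _
      · haveI := isCyclic_of_prime_card (p := 3) (by simpa using hjc : Nat.card (R ⧸ Subgroup.center R) = 3)
        letI := IsCyclic.commGroup (α := R ⧸ Subgroup.center R)
        exact fun x y => mul_comm x y
      · exact fun x y => IsPGroup.commutative_of_card_eq_prime_sq hjc x y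
    rw [← QuotientGroup.eq_one_iff, hc, QuotientGroup.mk_mul, QuotientGroup.mk_mul, QuotientGroup.mk_mul,
      QuotientGroup.mk_inv, QuotientGroup.mk_inv, hcomm (a : R ⧸ Subgroup.center R) b, mul_inv_cancel_right,
      mul_inv_cancel]
  have hc1 : c ≠ 1 := by
    rw [hc, Ne, mul_inv_eq_one, mul_inv_eq_iff_eq_mul]
    exact hab
  set Am : M3 := ((a : GL (Fin 3) F) : M3) with hAm
  set Bm : M3 := ((b : GL (Fin 3) F) : M3) with hBm
  set Cm : M3 := ((c : GL (Fin 3) F) : M3) with hCm
  have cv : ∀ u v : R, (((u * v : R) : GL (Fin 3) F) : M3) =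
      ((u : GL (Fin 3) F) : M3) * ((v : GL (Fin 3) F) : M3) := fun u v => rfl
  have hAB : Am * Bm = Cm * (Bm * Am) := by
    rw [hAm, hBm, hCm, ← cv, ← cv, ← cv, hc]
    group
  have hCA : Cm * Am = Am * Cm := by
    rw [hAm, hCm, ← cv, ← cv, Subgroup.mem_center_iff.1 hZ a]
  have hCB : Cm * Bm = Bm * Cm := by
    rw [hBm, hCm, ← cv, ← cv, Subgroup.mem_center_iff.1 hZ b]
  obtain ⟨Q, e, he, hQ⟩ := exists_diagonal (n := 3) (by exact_mod_cast h3) hμ Cm (hcube c)
  obtain ⟨i0, hi0⟩ : ∃ i, e i ≠ 1 := by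
    by_contra hall
    push Not at hall
    apply hc1
    apply Subtype.ext
    apply Units.ext
    show Cm = _
    have : Matrix.diagonal e = (1 : M3) := by rw [funext hall]; exact Matrix.diagonal_one
    rw [this, mul_one] at hQ
    calc Cm = Cm * ((Q : M3) * ((Q⁻¹ : GL (Fin 3) F) : M3)) := by rw [Units.mul_inv, mul_one]
      _ = 1 := by rw [← mul_assoc, hQ, Units.mul_inv]
  set ν := e i0 with hν
  have hνp : IsPrimitiveRoot ν 3 := by
    obtain ⟨k, hk, hkν⟩ := hμ.eq_pow_of_pow_eq_one (he i0)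
    rw [← hν] at hkν
    rw [← hkν]
    refine hμ.pow_of_coprime k ?_
    interval_cases k
    · simp [← hkν] at hi0
    all_goals norm_num
  -- an eigenvector for `c` and `a`
  let w : Fin 3 → F := (Q : M3) *ᵥ Pi.single i0 1
  have hw : Cm *ᵥ w = ν • w := by
    simp only [w, Matrix.mulVec_mulVec, hQ]
    rw [← Matrix.mulVec_mulVec, ← Matrix.mulVec_smul]
    congr 1
    ext j
    rw [Matrix.mulVec_diagonal]
    by_cases hj : j = i0
    · subst hj; simp [hν]
    · simp [hj]
  obtain ⟨v, l, hv0, hl, hCv, hAv⟩ : ∃ (v : Fin 3 → F) (l : F), v ≠ 0 ∧ l ^ 3 = 1 ∧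
      Cm *ᵥ v = ν • v ∧ Am *ᵥ v = l • v := by
    obtain ⟨Q', e', he', hQ'⟩ := exists_diagonal (n := 3) (by exact_mod_cast h3) hμ Am (hcube a)
    have hw0 : w ≠ 0 := by
      intro h
      have h' := congrArg (fun t => ((Q⁻¹ : GL (Fin 3) F) : M3) *ᵥ t) h
      simp only [w, Matrix.mulVec_mulVec, Matrix.mulVec_zero, Units.inv_mul, Matrix.one_mulVec] at h'
      simpa using congrFun h' i0
    set u : Fin 3 → F := ((Q'⁻¹ : GL (Fin 3) F) : M3) *ᵥ w with hu
    obtain ⟨j, hj⟩ : ∃ j, u j ≠ 0 := by
      by_contra hall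
      push Not at hall
      apply hw0
      have : (Q' : M3) *ᵥ u = 0 := by rw [funext hall]; exact Matrix.mulVec_zero _
      rwa [hu, Matrix.mulVec_mulVec, Units.mul_inv, Matrix.one_mulVec] at this
    let y : Fin 3 → F := fun i => if e' i = e' j then u i else 0
    -- the component of `w` is again a `ν`-eigenvector
    set C' : M3 := ((Q'⁻¹ : GL (Fin 3) F) : M3) * Cm * (Q' : M3) with hC'
    have hC'u : C' *ᵥ u = ν • u := by
      rw [hu, hC', Matrix.mulVec_mulVec, mul_assoc, Units.mul_inv, mul_one, ← Matrix.mulVec_mulVec, hw,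
        Matrix.mulVec_smul]
    have hC'd : C' * Matrix.diagonal e' = Matrix.diagonal e' * C' := by
      rw [hC']
      calc ((Q'⁻¹ : GL (Fin 3) F) : M3) * Cm * Q' * Matrix.diagonal e'
          = ((Q'⁻¹ : GL (Fin 3) F) : M3) * ((Cm * Am) * Q') := by
            rw [mul_assoc, mul_assoc, ← hQ', mul_assoc]
        _ = ((Q'⁻¹ : GL (Fin 3) F) : M3) * (Am * Q') * (((Q'⁻¹ : GL (Fin 3) F) : M3) * Cm * Q') := by
            rw [hCA]
            simp only [mul_assoc]
            rw [← mul_assoc (Q' : M3), Units.mul_inv, one_mul]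
        _ = _ := by rw [hQ', ← mul_assoc _ (Q' : M3), Units.inv_mul, one_mul]
    have hC'y : C' *ᵥ y = ν • y := by
      ext i
      have hent : ∀ k, e' i ≠ e' k → C' i k = 0 := fun k hk => by
        have := congrFun (congrFun hC'd i) k
        rw [Matrix.mul_diagonal, Matrix.diagonal_mul, mul_comm, ← sub_eq_zero, ← sub_mul, mul_eq_zero] at this
        exact this.resolve_left (sub_ne_zero.2 (Ne.symm hk))
      have h := congrFun hC'u i
      simp only [Matrix.mulVec, dotProduct, Pi.smul_apply, smul_eq_mul, y] at h ⊢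
      by_cases hi : e' i = e' j
      · rw [if_pos hi, ← h]
        refine Finset.sum_congr rfl fun k _ => ?_
        by_cases hk : e' k = e' j
        · rw [if_pos hk]
        · rw [hent k (fun hik => hk (hik ▸ hi)), zero_mul, zero_mul]
      · rw [if_neg hi, mul_zero]
        refine Finset.sum_eq_zero fun k _ => ?_
        by_cases hk : e' k = e' j
        · rw [hent k (fun hik => hi (hik.trans hk)), zero_mul]
        · rw [if_neg hk, mul_zero]
    refine ⟨(Q' : M3) *ᵥ y, e' j, ?_, he' j, ?_, ?_⟩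
    · intro h
      have h' := congrArg (fun t => ((Q'⁻¹ : GL (Fin 3) F) : M3) *ᵥ t) h
      simp only [Matrix.mulVec_mulVec, Matrix.mulVec_zero, Units.inv_mul, Matrix.one_mulVec] at h'
      exact hj (by simpa [y] using congrFun h' j)
    · have h' := congrArg (fun t => (Q' : M3) *ᵥ t) hC'y
      simpa [hC', Matrix.mulVec_mulVec, Matrix.mulVec_smul, ← mul_assoc] using h'
    · rw [Matrix.mulVec_mulVec, hQ', ← Matrix.mulVec_mulVec, ← Matrix.mulVec_smul]
      congr 1
      ext i
      rw [Matrix.mulVec_diagonal]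
      simp only [y, Pi.smul_apply, smul_eq_mul]
      split_ifs with h
      · rw [h]
      · simp
  -- the basis
  let V : Fin 3 → Fin 3 → F := ![v, Bm *ᵥ v, Bm *ᵥ (Bm *ᵥ v)]
  have step : ∀ (u : Fin 3 → F) (t : F), Cm *ᵥ u = ν • u → Am *ᵥ u = t • u →
      Cm *ᵥ (Bm *ᵥ u) = ν • (Bm *ᵥ u) ∧ Am *ᵥ (Bm *ᵥ u) = (ν * t) • (Bm *ᵥ u) := by
    intro u t hCu hAu
    refine ⟨?_, ?_⟩
    · rw [Matrix.mulVec_mulVec, hCB, ← Matrix.mulVec_mulVec, hCu, Matrix.mulVec_smul]
    · rw [Matrix.mulVec_mulVec, hAB, ← Matrix.mulVec_mulVec, ← Matrix.mulVec_mulVec, hAu,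
        Matrix.mulVec_smul, Matrix.mulVec_smul, Matrix.mulVec_mulVec, hCB, ← Matrix.mulVec_mulVec, hCu,
        Matrix.mulVec_smul, smul_smul, mul_comm]
  obtain ⟨hC1, hA1⟩ := step v l hCv hAv
  obtain ⟨hC2, hA2⟩ := step _ _ hC1 hA1
  have hne : ∀ (g : GL (Fin 3) F) (u : Fin 3 → F), u ≠ 0 → (g : M3) *ᵥ u ≠ 0 := fun g u hu h => hu (by
    have h' := congrArg (fun t => ((g⁻¹ : GL (Fin 3) F) : M3) *ᵥ t) h
    simpa [Matrix.mulVec_mulVec] using h')
  have hVA : ∀ i : Fin 3, Am *ᵥ V i = (ν ^ (i : ℕ) * l) • V i := by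
    intro i; fin_cases i
    · simpa [V] using hAv
    · simpa [V] using hA1
    · simpa [V, pow_two, mul_assoc] using hA2
  have hl0 : l ≠ 0 := fun h => by simp [h] at hl
  have hind : LinearIndependent F V := by
    refine Module.End.eigenvectors_linearIndependent' (Matrix.mulVecLin Am) (fun i : Fin 3 => ν ^ (i : ℕ) * l)
      (fun i j h => Fin.ext (hνp.pow_inj i.2 j.2 (mul_right_cancel₀ hl0 h))) V fun i => ?_
    refine ⟨Module.End.mem_eigenspace_iff.2 (hVA i), ?_⟩
    fin_cases i
    · simpa [V] using hv0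
    · simpa [V] using hne b v hv0
    · simpa [V] using hne b _ (hne b v hv0)
  obtain ⟨P, hPA, hPv⟩ := exists_diag_basis Am V _ hind hVA
  have hPB : Bm * (P : M3) = (P : M3) * shift := by
    ext i j
    have hb3 : Bm *ᵥ (Bm *ᵥ (Bm *ᵥ v)) = v := by
      rw [Matrix.mulVec_mulVec, Matrix.mulVec_mulVec, ← pow_three', hcube b, Matrix.one_mulVec]
    have hBV : ∀ k : Fin 3, Bm *ᵥ V k = V (k + 1) := by
      intro k; fin_cases k <;> simp [V]
      simpa [Matrix.mulVec_mulVec, mul_assoc] using hb3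
    have := congrFun (hBV j) i
    rw [Matrix.mul_apply, Matrix.mul_apply]
    simp only [Matrix.mulVec, dotProduct] at this
    simp only [hPv, shift, Matrix.of_apply, mul_ite, mul_one, mul_zero, Finset.sum_ite_eq', Finset.mem_univ, if_true]
    exact this
  have hPC : Cm * (P : M3) = ν • (P : M3) := by
    have hCV : ∀ k : Fin 3, Cm *ᵥ V k = ν • V k := by
      intro k; fin_cases k
      · simpa [V] using hCv
      · simpa [V] using hC1
      · simpa [V] using hC2
    ext i j
    have := congrFun (hCV j) i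
    rw [Matrix.mul_apply, Matrix.smul_apply]
    simp only [Matrix.mulVec, dotProduct, Pi.smul_apply] at this
    simp only [hPv]
    exact this
  refine ⟨ν, P, hνp, ?_⟩
  set f : GL (Fin 3) F →* GL (Fin 3) F := (MulAut.conj P⁻¹).toMonoidHom with hf
  have hfv : ∀ x : GL (Fin 3) F, ((f x : GL (Fin 3) F) : M3) = ((P⁻¹ : GL (Fin 3) F) : M3) * (x : M3) * (P : M3) :=
    fun x => by simp [hf, MulAut.conj_apply]
  have hfC : ((f c : GL (Fin 3) F) : M3) = ν • (1 : M3) := by
    rw [hfv, mul_assoc, hPC, Matrix.mul_smul, Units.inv_mul]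
  -- fix the scalar factor of the diagonal generator
  obtain ⟨k, -, hk⟩ := hνp.eq_pow_of_pow_eq_one (show l⁻¹ ^ 3 = 1 by rw [inv_pow, hl, inv_one])
  refine ⟨{ Z := f c, A := f (c ^ k * a : R), B := f b, hZ := hfC, hA := ?_, hB := ?_,
            mZ := Subgroup.mem_map_of_mem _ c.2, mA := Subgroup.mem_map_of_mem _ (c ^ k * a).2,
            mB := Subgroup.mem_map_of_mem _ b.2, gen := ?_ }⟩
  · rw [Subgroup.coe_mul, Subgroup.coe_pow, map_mul, map_pow, Units.val_mul, Units.val_pow_eq_pow_val, hfC,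
      smul_pow, one_pow, Matrix.smul_mul, one_mul, hfv, mul_assoc, hPA, ← mul_assoc, Units.inv_mul, one_mul, hk]
    ext i j
    by_cases hij : i = j
    · subst hij; simp [pows]; field_simp
    · simp [pows, hij]
  · rw [hfv, mul_assoc, hPB, ← mul_assoc, Units.inv_mul, one_mul]
  · have hc2 : Subgroup.closure {c ^ k * a, b} = (⊤ : Subgroup R) := by
      rw [← Subgroup.card_eq_iff_eq_top, hR]
      obtain ⟨j, hj, hjc⟩ := (Nat.dvd_prime_pow Nat.prime_three (m := 3)).1
        (show Nat.card (Subgroup.closure {c ^ k * a, b}) ∣ 3 ^ 3 by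
          rw [show 3 ^ 3 = Nat.card R by rw [hR]; norm_num]; exact Subgroup.card_subgroup_dvd_card _)
      have ha : c ^ k * a ∈ Subgroup.closure ({c ^ k * a, b} : Set R) := Subgroup.subset_closure (by simp)
      have hb : b ∈ Subgroup.closure ({c ^ k * a, b} : Set R) := Subgroup.subset_closure (by simp)
      have hne' : c ^ k * a * b ≠ b * (c ^ k * a) := by
        intro h
        apply hab
        have hck : b * c ^ k = c ^ k * b := Subgroup.mem_center_iff.1 (pow_mem hZ k) b
        rw [← mul_assoc b, hck, mul_assoc, mul_assoc] at h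
        exact mul_left_cancel h
      interval_cases j
      · exfalso
        rw [Subgroup.card_eq_one.1 hjc, Subgroup.mem_bot] at ha
        exact hne' (by simp [ha])
      · exfalso
        haveI := isCyclic_of_prime_card (p := 3)
          (by simpa using hjc : Nat.card (Subgroup.closure {c ^ k * a, b}) = 3)
        letI := IsCyclic.commGroup (α := Subgroup.closure ({c ^ k * a, b} : Set R))
        exact hne' (congrArg Subtype.val
          (mul_comm (G := Subgroup.closure ({c ^ k * a, b} : Set R)) ⟨_, ha⟩ ⟨b, hb⟩))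
      · exfalso
        exact hne' (congrArg Subtype.val (IsPGroup.commutative_of_card_eq_prime_sq hjc ⟨_, ha⟩ ⟨b, hb⟩))
      · simpa using hjc
    have h1 : R = (Subgroup.closure {c ^ k * a, b}).map R.subtype := by
      rw [hc2, ← MonoidHom.range_eq_map, Subgroup.range_subtype]
    conv_lhs => rw [h1]
    rw [MonoidHom.map_closure, MonoidHom.map_closure, Set.image_image, Set.image_pair]
    rfl

end Cfsg.Agent.Lib.Three
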